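import Mathlib
set_option autoImplicit false

/-!
Degree bounds from eigencharacters of abelian subgroups over algebraically closed fields.
-/

namespace CfsgLib.MinDegree.Cross

open Finset

variable {Q K V : Type*} [AddCommGroup Q] [Field K] [AddCommGroup V] [Module K V]

/-- `w` is an eigenvector of `T` with character `ψ`. -/
def HasEigenK (T : Q → Module.End K V) (ψ : AddChar Q K) : Prop :=
  ∃ w : V, w ≠ 0 ∧ ∀ s, T s w = ψ s • w

/-- Distinct eigencharacters are at most as many as the dimension. -/
theorem card_le_finrank [FiniteDimensional K V] [Fintype Q] (hQ : (Fintype.card Q : K) ≠ 0)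
    (T : Q → Module.End K V) (S : Finset (AddChar Q K)) (h : ∀ φ ∈ S, HasEigenK T φ) :
    S.card ≤ Module.finrank K V := by
  classical
  choose w hw0 hw using h
  have li : LinearIndependent K (fun φ : S => w φ.1 φ.2) := by
    rw [Fintype.linearIndependent_iff]
    intro c hc ψ
    have h1 := congrArg (∑ s, ψ.1 (-s) • T s : Module.End K V) hc
    rw [map_sum, map_zero, Finset.sum_eq_single ψ] at h1
    · simp only [map_smul, LinearMap.sum_apply, LinearMap.smul_apply, hw, smul_smul] at h1
      simp only [← AddChar.map_add_eq_mul, neg_add_cancel, AddChar.map_zero_eq_one, one_smul, Finset.sum_const,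
        Finset.card_univ, ← Nat.cast_smul_eq_nsmul K, smul_smul] at h1
      exact (mul_eq_zero.mp ((smul_eq_zero.mp h1).resolve_right (hw0 _ ψ.2))).resolve_right hQ
    · intro φ _ hne
      have e : ∑ s, ψ.1 (-s) * φ.1 s = 0 := by
        have := AddChar.sum_eq_zero_of_ne_one (R' := K) (ψ := φ.1 * ψ.1⁻¹)
          (fun e => hne (Subtype.ext (mul_inv_eq_one.mp e)))
        simpa [AddChar.mul_apply, AddChar.inv_apply, mul_comm] using this
      simp only [map_smul, LinearMap.sum_apply, LinearMap.smul_apply, hw, smul_smul]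
      rw [← Finset.sum_smul, e, zero_smul, smul_zero]
    · simp
  simpa using li.fintype_card_le_finrank

/-- A non-trivial action of a finite abelian group of order invertible in `K` has a non-trivial eigencharacter. -/
theorem exists_eigen [IsAlgClosed K] [FiniteDimensional K V] [Fintype Q] (hQ : (Fintype.card Q : K) ≠ 0)
    (T : Q → Module.End K V) (T0 : T 0 = 1) (Tadd : ∀ s t, T (s + t) = T s * T t) {s₀ : Q} (h : T s₀ ≠ 1) :
    ∃ ψ : AddChar Q K, ψ ≠ 0 ∧ HasEigenK T ψ := by
  classical
  set N := Fintype.card Q with hN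
  have hpow : ∀ k : ℕ, T (k • s₀) = T s₀ ^ k := by
    intro k
    induction k with
    | zero => simp [T0]
    | succ k ih => rw [succ_nsmul, Tadd, ih, pow_succ]
  have hTN : T s₀ ^ N = 1 := by rw [← hpow, hN, card_nsmul_eq_zero, T0]
  -- `T s₀` is semisimple, so has an eigenvalue other than `1`
  have hev : ∃ μ : K, μ ≠ 1 ∧ (T s₀).HasEigenvalue μ := by
    by_contra hno
    push Not at hno
    set m := minpoly K (T s₀) with hm
    have hdvd : m ∣ Polynomial.X ^ N - Polynomial.C 1 :=
      minpoly.dvd K (T s₀) (by simp [hTN])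
    have hsep : m.Separable := (Polynomial.separable_X_pow_sub_C (1 : K) hQ one_ne_zero).of_dvd hdvd
    have hint : IsIntegral K (T s₀) := Algebra.IsIntegral.isIntegral _
    have hdvd1 : m ∣ Polynomial.X - Polynomial.C 1 := by
      have hsplit : m.Splits := IsAlgClosed.splits m
      rw [hsplit.eq_prod_roots_of_monic (minpoly.monic hint)]
      have hnd : m.roots.Nodup := Polynomial.nodup_roots hsep
      have hall : ∀ r ∈ m.roots, r = 1 := fun r hr => by
        by_contra hr1
        exact hno r hr1 (Module.End.hasEigenvalue_iff_isRoot.mpr (Polynomial.isRoot_of_mem_roots hr))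
      have hle : m.roots ≤ ({1} : Multiset K) :=
        (Multiset.le_iff_subset hnd).mpr fun r hr => by simp [hall r hr]
      exact (Multiset.prod_dvd_prod_of_le (Multiset.map_le_map hle)).trans (by simp)
    obtain ⟨c, hc⟩ := hdvd1
    have := congrArg (Polynomial.aeval (T s₀)) hc
    rw [map_mul, hm, minpoly.aeval, zero_mul] at this
    simp [sub_eq_zero] at this
    exact h this
  obtain ⟨μ, hμ, hev⟩ := hev
  have hex : ∃ n, ∃ W : Submodule K V, W ≠ ⊥ ∧ W ≤ (T s₀).eigenspace μ ∧ (∀ s, ∀ w ∈ W, T s w ∈ W) ∧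
      Module.finrank K W = n := by
    refine ⟨_, (T s₀).eigenspace μ, hev, le_rfl, fun s w hw => ?_, rfl⟩
    rw [Module.End.mem_eigenspace_iff] at hw ⊢
    rw [← Module.End.mul_apply, ← Tadd, add_comm, Tadd, Module.End.mul_apply, hw, map_smul]
  obtain ⟨W, hW0, hWμ, hWinv, hWn⟩ := Nat.find_spec hex
  have hscal : ∀ s, ∃ c : K, ∀ w ∈ W, T s w = c • w := by
    intro s
    have : Nontrivial W := Submodule.nontrivial_iff_ne_bot.mpr hW0
    obtain ⟨c, hc⟩ := Module.End.exists_eigenvalue ((T s).restrict (hWinv s))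
    refine ⟨c, fun w hw => ?_⟩
    let W' : Submodule K V := W ⊓ (T s).eigenspace c
    have hW' : W' = W := by
      refine Submodule.eq_of_le_of_finrank_le inf_le_left ?_
      rw [hWn]
      refine Nat.find_min' hex ⟨W', ?_, inf_le_left.trans hWμ, fun t v hv => ⟨hWinv t v hv.1, ?_⟩, rfl⟩
      · obtain ⟨v, hv⟩ := hc.exists_hasEigenvector
        intro e
        have hm : v.1 ∈ W' := ⟨v.2, Module.End.mem_eigenspace_iff.mpr (congrArg Subtype.val hv.apply_eq_smul)⟩
        rw [e, Submodule.mem_bot] at hm
        exact hv.2 (Subtype.ext hm)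
      · have hv2 := Module.End.mem_eigenspace_iff.mp hv.2
        refine Module.End.mem_eigenspace_iff.mpr ?_
        rw [← Module.End.mul_apply, ← Tadd, add_comm, Tadd, Module.End.mul_apply, hv2, map_smul]
    exact Module.End.mem_eigenspace_iff.mp (hW'.symm ▸ hw : w ∈ W').2
  choose c hc using hscal
  obtain ⟨w, hw, hw0⟩ := Submodule.exists_mem_ne_zero_of_ne_bot hW0
  refine ⟨⟨c, smul_left_injective K hw0 (?_ : c 0 • w = (1 : K) • w),
    fun s t => smul_left_injective K hw0 (?_ : c (s + t) • w = (c s * c t) • w)⟩, fun e => hμ ?_,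
    w, hw0, fun s => hc s w hw⟩
  · rw [← hc 0 w hw, T0, one_smul]; rfl
  · rw [← hc _ w hw, Tadd, Module.End.mul_apply, hc t w hw, map_smul, hc s w hw, smul_smul, mul_comm]
  · have h1 : c s₀ = 1 := DFunLike.congr_fun e s₀
    have h2 := Module.End.mem_eigenspace_iff.mp (hWμ hw)
    rw [hc s₀ w hw, h1, one_smul] at h2
    exact (smul_left_injective K hw0 (show μ • w = (1 : K) • w by rw [← h2, one_smul]))

/-- Eigencharacters are permuted by whatever normalises the action. -/
theorem HasEigenK.comp {T : Q → Module.End K V} {ψ φ : AddChar Q K} (h : HasEigenK T ψ)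
    (σ : Q → Q) (hσ : ∀ s, φ s = ψ (σ s)) (U U' : Module.End K V) (hU : U * U' = 1)
    (hU' : U' * U = 1) (hT : ∀ s, T (σ s) = U * T s * U') : HasEigenK T φ := by
  obtain ⟨w, hw0, hw⟩ := h
  refine ⟨U' w, fun e => hw0 ?_, fun s => ?_⟩
  · rw [← Module.End.one_apply (R := K) w, ← hU, Module.End.mul_apply, e, map_zero]
  · have e : T s * U' = U' * T (σ s) := by
      rw [hT]; simp only [← mul_assoc, hU', one_mul]
    rw [← Module.End.mul_apply, e, Module.End.mul_apply, hw, map_smul, hσ]

/-- A finite abelian group has at most as many characters as elements. -/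
theorem card_addChar_le [Fintype Q] (S : Finset (AddChar Q K)) : S.card ≤ Fintype.card Q := by
  classical
  have li := (linearIndependent_monoidHom (Multiplicative Q) K).comp (fun φ : S => φ.1.toMonoidHom)
    (fun a b h => Subtype.ext (AddChar.toMonoidHomEquiv.injective h))
  have := li.fintype_card_le_finrank
  rwa [Module.finrank_fintype_fun_eq_card, Fintype.card_coe, Fintype.card_multiplicative] at this

/-- A non-trivial additive character in characteristic different from that of the field. -/
theorem exists_addChar {F : Type*} [Field F] [Fintype F] [IsAlgClosed K] (h : ringChar K ≠ ringChar F) :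
    ∃ θ : AddChar F K, θ ≠ 0 := by
  classical
  set p := ringChar F with hp
  have hpp : p.Prime := CharP.char_is_prime F p
  have : Fact p.Prime := ⟨hpp⟩
  have hpK : (p : K) ≠ 0 := fun e => h (CharP.ringChar_of_prime_eq_zero hpp e)
  have : NeZero (p : K) := ⟨hpK⟩
  obtain ⟨ζ, hζ⟩ := HasEnoughRootsOfUnity.exists_primitiveRoot K p
  let θ0 : AddChar (ZMod p) K := AddChar.zmodChar p hζ.pow_eq_one
  let _ : Algebra (ZMod p) F := ZMod.algebra F p
  obtain ⟨a, ha⟩ := FiniteField.trace_to_zmod_nondegenerate (F := F) (a := 1) one_ne_zero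
  refine ⟨θ0.compAddMonoidHom (Algebra.trace (ZMod p) F).toAddMonoidHom, fun e => ?_⟩
  have e1 := DFunLike.congr_fun e a
  rw [one_mul] at ha
  simp only [AddChar.compAddMonoidHom_apply, LinearMap.toAddMonoidHom_coe, AddChar.zero_apply, θ0,
    AddChar.zmodChar_apply] at e1
  exact ha ((ZMod.val_eq_zero _).mp (Nat.eq_zero_of_dvd_of_lt ((hζ.pow_eq_one_iff_dvd _).mp e1) (ZMod.val_lt _)))

end CfsgLib.MinDegree.Cross
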