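import Cfsg.Agent.MinDegree.SpLower
import Cfsg.Agent.MinDegree.OrbitField
set_option autoImplicit false

/-!
Cross characteristic lower bound for representations of `Sp_2n(q)`, `q` odd.
-/

namespace CfsgLib.MinDegree.Cross

open Matrix Finset

variable {F : Type*} [Field F] [Fintype F] [DecidableEq F] {n : ℕ}
variable {K : Type*} [Field K]

local notation "Sp" => Matrix.symplecticGroup (Fin n) F

omit [DecidableEq F] in
theorem card_ne_zero {Q : Type*} [AddCommGroup Q] [Fintype Q] (hK : ringChar K ≠ ringChar F)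
    (hQ : ∀ x : Q, ringChar F • x = 0) : (Fintype.card Q : K) ≠ 0 := by
  intro h
  have hp : (ringChar F).Prime := CharP.char_is_prime F _
  have hr := (ringChar.spec K _).mp h
  rcases CharP.char_is_prime_or_zero K (ringChar K) with hrp | hr0
  · have : Fact (ringChar K).Prime := ⟨hrp⟩
    obtain ⟨x, hx⟩ := exists_prime_addOrderOf_dvd_card (ringChar K) hr
    have h1 := addOrderOf_dvd_iff_nsmul_eq_zero.mpr (hQ x)
    rw [hx] at h1
    exact hK ((Nat.prime_dvd_prime_iff_eq hrp hp).mp h1)
  · rw [hr0, zero_dvd_iff] at hr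
    exact Fintype.card_ne_zero hr

theorem exists_sq_ne_one (h2 : (2 : F) ≠ 0) {ψ : AddChar (symMat F n) K} (hψ : ψ ≠ 0) :
    ∃ c v, ψ (sq c v) ≠ 1 := by
  by_contra hno
  push Not at hno
  refine hψ (DFunLike.ext _ _ fun S => ?_)
  rw [AddChar.zero_apply]
  let K : AddSubgroup (symMat F n) :=
    { carrier := {T | ψ T = 1}
      add_mem' := fun {a b} (ha hb) => by
        show ψ _ = 1
        rw [AddChar.map_add_eq_mul, show ψ a = 1 from ha, show ψ b = 1 from hb, one_mul]
      zero_mem' := AddChar.map_zero_eq_one ψ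
      neg_mem' := fun {a} (ha) => by
        show ψ _ = 1
        rw [AddChar.map_neg_eq_inv, show ψ a = 1 from ha, inv_one] }
  have hsym : ∀ i j (c : F), sym2 (c • Pi.single i 1) (Pi.single j 1) ∈ K := by
    intro i j c
    have e : sym2 (c • Pi.single i 1) (Pi.single j 1) =
        sq c (Pi.single i 1 + (1 : F) • Pi.single j 1) - sq c (Pi.single i 1) - sq c (Pi.single j 1 : Fin n → F) := by
      rw [sq_add_smul, mul_one, mul_one]; abel
    rw [e]
    exact K.sub_mem (K.sub_mem (hno _ _) (hno _ _)) (hno _ _)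
  have e : S = ∑ i, ∑ j, sym2 (((S : Matrix (Fin n) (Fin n) F) i j / 2) • Pi.single i 1) (Pi.single j 1) := by
    refine Subtype.ext (Matrix.ext fun a b => ?_)
    have hs : (S : Matrix (Fin n) (Fin n) F) b a = (S : Matrix (Fin n) (Fin n) F) a b :=
      congrFun (congrFun S.2 a) b
    simp [sym2, Matrix.sum_apply, Matrix.vecMulVec_apply, Pi.single_apply, Finset.sum_add_distrib, hs]
    field_simp
    ring
  have : S ∈ K := by
    rw [e]
    exact K.sum_mem fun i _ => K.sum_mem fun j _ => hsym i j _
  exact this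

theorem sp_lower (hn : 2 ≤ n) (hodd : Odd (Fintype.card F)) (hK : ringChar K ≠ ringChar F) [IsAlgClosed K] {V : Type*} [AddCommGroup V] [Module K V]
    [FiniteDimensional K V] (ρ : Representation K Sp V) {S₀ : symMat F n} (hS₀ : ρ (usym S₀) ≠ 1) : (Fintype.card F ^ n - 1) / 2 ≤ Module.finrank K V := by
  classical
  have h2 : (2 : F) ≠ 0 := Ring.two_ne_zero fun h => by
    have := FiniteField.even_card_of_char_two h
    have := Nat.odd_iff.mp hodd
    omega
  have hQ := card_ne_zero (Q := symMat F n) hK fun x => Subtype.ext (Matrix.ext fun i j => by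
    show ringChar F • (x : Matrix (Fin n) (Fin n) F) i j = 0
    simp [nsmul_eq_mul])
  have T0 : (fun S => ρ (usym S)) 0 = 1 := by simp [usym_zero]
  obtain ⟨ψ, hψ, hev⟩ := exists_eigen hQ (fun S => ρ (usym S)) T0 (fun s t => by simp [usym_add]) hS₀
  obtain ⟨c₀, v₀, hc₀⟩ := exists_sq_ne_one h2 hψ
  have hv₀ : v₀ ≠ 0 := by
    rintro rfl
    exact hc₀ (by rw [show sq c₀ (0 : Fin n → F) = 0 from Subtype.ext (by simp [sq]), AddChar.map_zero_eq_one])
  let cm : GL (Fin n) F → AddChar (symMat F n) K := fun A => ψ.compAddMonoidHom (congSym A.val)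
  let O : Finset (AddChar (symMat F n) K) := univ.image cm
  have hOV : O.card ≤ Module.finrank K V := by
    refine card_le_finrank hQ (fun S => ρ (usym S)) O fun φ hφ => ?_
    obtain ⟨A, -, rfl⟩ := Finset.mem_image.mp hφ
    refine hev.comp (congSym A.val) (fun s => rfl) (ρ (CfsgLib.WordLaw.toSp F n A))
      (ρ (CfsgLib.WordLaw.toSp F n A⁻¹)) ?_ ?_ (fun s => ?_)
    · rw [← map_mul, ← map_mul, mul_inv_cancel, map_one, map_one]
    · rw [← map_mul, ← map_mul, inv_mul_cancel, map_one, map_one]
    · simp only [← map_mul, toSp_usym]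
  let R : AddChar (symMat F n) K → (Fin n → F) → Prop := fun φ v => ∀ c, φ (sq c v) = ψ (sq c v₀)
  -- every character of the orbit is related to few vectors
  have hup : ∀ φ, (Finset.bipartiteAbove R (univ.erase 0) φ).card ≤ 2 * Fintype.card F ^ (n - 1) := by
    intro φ
    set B := Finset.bipartiteAbove R (univ.erase 0) φ with hB
    rcases B.eq_empty_or_nonempty with he | ⟨v, hv⟩
    · simp [he]
    have hvR : R φ v := (Finset.mem_filter.mp hv).2
    have hthree : ∀ (w : Fin n → F) (t s : F), t ≠ s → R φ (w + t • v) → R φ (w + s • v) →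
        ∀ c, φ (sym2 (c • w) v) * ψ (sq (c * (t + s)) v₀) = 1 := by
      intro w t s hts ht hs c
      have hd : c / (t - s) * t = c / (t - s) * s + c := by
        field_simp [sub_ne_zero.mpr hts]; ring
      have hd2 : c / (t - s) * t * t = c / (t - s) * s * s + c * (t + s) := by
        field_simp [sub_ne_zero.mpr hts]; ring
      have e1 := ht (c / (t - s))
      have e2 := hs (c / (t - s))
      rw [sq_add_smul, AddChar.map_add_eq_mul, AddChar.map_add_eq_mul, hvR, hd2, hd, sym2_smul_add,
        AddChar.map_add_eq_mul, sq_add (c / (t - s) * s * s) (c * (t + s)) v₀,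
        AddChar.map_add_eq_mul] at e1
      rw [sq_add_smul, AddChar.map_add_eq_mul, AddChar.map_add_eq_mul, hvR, ← e1] at e2
      have hne : φ (sq (c / (t - s)) w) * φ (sym2 ((c / (t - s) * s) • w) v) *
          ψ (sq (c / (t - s) * s * s) v₀) ≠ 0 :=
        mul_ne_zero (mul_ne_zero (φ.val_isUnit _).ne_zero (φ.val_isUnit _).ne_zero) (ψ.val_isUnit _).ne_zero
      apply mul_left_cancel₀ hne
      rw [mul_one]
      linear_combination -e2
    have htwo : ∀ w : Fin n → F, (univ.filter fun t : F => w + t • v ∈ B).card ≤ 2 := by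
      intro w
      by_contra hlt
      push Not at hlt
      obtain ⟨t, s, r, ht, hs, hr, hts, htr, hsr⟩ := Finset.two_lt_card_iff.mp hlt
      simp only [Finset.mem_filter, Finset.mem_univ, true_and, hB, Finset.bipartiteAbove] at ht hs hr
      refine hc₀ ?_
      have hd1 : (c₀ / (s - r)) * (t + s) = (c₀ / (s - r)) * (t + r) + c₀ := by
        field_simp [sub_ne_zero.mpr hsr]; ring
      have e1 := hthree w t s hts ht.2 hs.2 (c₀ / (s - r))
      have e2 := hthree w t r htr ht.2 hr.2 (c₀ / (s - r))
      rw [hd1, sq_add, AddChar.map_add_eq_mul] at e1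
      have hne := mul_ne_zero (φ.val_isUnit (sym2 ((c₀ / (s - r)) • w) v)).ne_zero
        (ψ.val_isUnit (sq ((c₀ / (s - r)) * (t + r)) v₀)).ne_zero
      linear_combination e1 - (ψ (sq c₀ v₀)) * e2
    have key : Fintype.card F * B.card = ∑ w : Fin n → F, (univ.filter fun t : F => w + t • v ∈ B).card := by
      rw [show (∑ w : Fin n → F, (univ.filter fun t : F => w + t • v ∈ B).card) =
        ((univ ×ˢ univ).filter fun p : (Fin n → F) × F => p.1 + p.2 • v ∈ B).card by
          rw [Finset.card_filter, Finset.sum_product]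
          exact Finset.sum_congr rfl fun w _ => Finset.card_filter _ _]
      rw [mul_comm, ← Finset.card_univ, ← Finset.card_product]
      refine Finset.card_bij (fun p _ => (p.1 - p.2 • v, p.2)) (fun p hp => ?_) (fun p _ p' _ h => ?_)
        (fun p hp => ?_)
      · simp at hp ⊢; exact hp
      · simp [Prod.ext_iff] at h ⊢
        obtain ⟨h1, h2⟩ := h
        rw [h2] at h1
        exact ⟨sub_left_injective h1, h2⟩
      · exact ⟨(p.1 + p.2 • v, p.2), by simpa using hp, by simp⟩
    have hle : Fintype.card F * B.card ≤ Fintype.card F ^ n * 2 := by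
      rw [key]
      refine (Finset.sum_le_card_nsmul _ _ 2 fun w _ => htwo w).trans ?_
      simp
    have hq : Fintype.card F ^ n = Fintype.card F * Fintype.card F ^ (n - 1) := by
      rw [← pow_succ']; congr 1; omega
    rw [hq] at hle
    exact Nat.le_of_mul_le_mul_left (by linarith) Fintype.card_pos
  -- every vector is related to many characters of the orbit
  have hlow : ∀ v ∈ (univ.erase 0 : Finset (Fin n → F)),
      Fintype.card F ^ (n - 1) ≤ (Finset.bipartiteBelow R O v).card := by
    intro v hv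
    have hv0 := Finset.ne_of_mem_erase hv
    obtain ⟨Z, hZ, hZv⟩ : ∃ Z : Matrix (Fin n) (Fin n) F, Z.det ≠ 0 ∧ Z *ᵥ v = v₀ := by
      have : Nontrivial (Fin n) := Fin.nontrivial_iff_two_le.mpr hn
      obtain ⟨A, hA⟩ := CfsgLib.SLn.exists_smul_eq hv0 hv₀
      exact ⟨A.1, by rw [A.2]; exact one_ne_zero, hA⟩
    have hcard : (univ.filter fun u : Fin n → F => ∑ i, v i * u i = 0).card = Fintype.card F ^ (n - 1) := by
      rw [← Fintype.card_subtype, ← Nat.card_eq_fintype_card]
      exact CfsgLib.OrthOrder.card_dot_eq hv0 0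
    rw [← hcard]
    have hdet : ∀ u : Fin n → F, ∑ i, v i * u i = 0 → (Z * (1 + Matrix.vecMulVec v u)).det ≠ 0 := by
      intro u hu
      rw [Matrix.det_mul, Matrix.vecMulVec_eq Unit, Matrix.det_one_add_replicateCol_mul_replicateRow,
        dotProduct_comm]
      simp [dotProduct, hu, hZ]
    refine Finset.card_le_card_of_injOn
      (fun u => ψ.compAddMonoidHom (congSym (Z * (1 + Matrix.vecMulVec v u)))) (fun u hu => ?_) ?_
    · have hu' := (Finset.mem_filter.mp hu).2
      refine Finset.mem_filter.mpr ⟨Finset.mem_image.mpr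
        ⟨Matrix.GeneralLinearGroup.mkOfDetNeZero _ (hdet u hu'), Finset.mem_univ _, rfl⟩, fun c => ?_⟩
      show ψ (congSym _ (sq c v)) = _
      rw [congSym_sq, ← Matrix.mulVec_mulVec, Matrix.add_mulVec, Matrix.one_mulVec,
        Matrix.vecMulVec_mulVec, dotProduct_comm]
      simp [dotProduct, hu', hZv]
    · intro u hu u' hu' he
      have hu1 := (Finset.mem_filter.mp hu).2
      have hu2 := (Finset.mem_filter.mp hu').2
      have hval : ∀ (u : Fin n → F), ∑ i, v i * u i = 0 → ∀ x,
          ψ (congSym (Z * (1 + Matrix.vecMulVec v u)) (sym2 x v)) =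
            ψ (sym2 (Z *ᵥ x) v₀) * ψ (sq (2 * (u ⬝ᵥ x)) v₀) := by
        intro u hu x
        rw [congSym_sym2, ← AddChar.map_add_eq_mul]
        congr 1
        have h1 : (Z * (1 + Matrix.vecMulVec v u)) *ᵥ v = v₀ := by
          rw [← Matrix.mulVec_mulVec, Matrix.add_mulVec, Matrix.one_mulVec,
            Matrix.vecMulVec_mulVec, dotProduct_comm]
          simp [dotProduct, hu, hZv]
        have h3 : (Z * (1 + Matrix.vecMulVec v u)) *ᵥ x = Z *ᵥ x + (u ⬝ᵥ x) • v₀ := by
          rw [← Matrix.mulVec_mulVec, Matrix.add_mulVec, Matrix.one_mulVec,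
            Matrix.vecMulVec_mulVec, Matrix.mulVec_add, op_smul_eq_smul, Matrix.mulVec_smul, hZv]
        rw [h1, h3]
        refine Subtype.ext (Matrix.ext fun i j => ?_)
        simp [sym2, sq, Matrix.vecMulVec_apply]
        ring
      by_contra hne
      obtain ⟨i, hi⟩ := Function.ne_iff.mp (sub_ne_zero.mpr hne)
      have hi' : u i - u' i ≠ 0 := by simpa using hi
      set x : Fin n → F := Pi.single i (c₀ / (2 * (u i - u' i))) with hx
      have e := DFunLike.congr_fun he (sym2 x v)
      simp only [AddChar.compAddMonoidHom_apply, hval u hu1 x, hval u' hu2 x] at e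
      have e2 := mul_left_cancel₀ (ψ.val_isUnit _).ne_zero e
      have : (2 * (u ⬝ᵥ x) : F) = 2 * (u' ⬝ᵥ x) + c₀ := by
        simp [hx]; field_simp; ring
      rw [this, sq_add, AddChar.map_add_eq_mul] at e2
      exact hc₀ (mul_left_cancel₀ (ψ.val_isUnit _).ne_zero (e2.trans (mul_one _).symm))
  have h := Finset.card_mul_le_card_mul' R (s := O) (t := univ.erase 0)
    (fun v hv => hlow v hv) (fun φ _ => hup φ)
  rw [Finset.card_erase_of_mem (Finset.mem_univ _), Finset.card_univ, Fintype.card_fun, Fintype.card_fin] at h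
  have h' : Fintype.card F ^ n - 1 ≤ 2 * O.card := by
    refine Nat.le_of_mul_le_mul_right (?_ : _ * Fintype.card F ^ (n - 1) ≤ _ * Fintype.card F ^ (n - 1)) (pow_pos Fintype.card_pos _)
    linarith
  omega

end CfsgLib.MinDegree.Cross
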